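import Cfsg.Agent.PermGroups.Burnside
import Cfsg.Agent.PermPrimes.JordanCycle
import Cfsg.Agent.SylowToolkit.Counting
import Mathlib

/-!
Insoluble transitive groups of degree eleven: supports of elements, double counting, orders.
-/

set_option autoImplicit false
set_option linter.style.haveILetI false
set_option linter.unusedSectionVars false
set_option linter.unusedDecidableInType false

open MulAction Equiv Equiv.Perm
open scoped Pointwise

namespace CfsgLib.PermGroups.Eleven

variable {α : Type*} [Fintype α] [DecidableEq α]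

/-- A set invariant under an element of prime order meets its support in a multiple of that
prime. -/
theorem prime_dvd_card_inter {g : Perm α} {p : ℕ} [Fact p.Prime] (hg : orderOf g = p)
    (S : Finset α) (hS : ∀ x, g x ∈ S ↔ x ∈ S) : p ∣ (S ∩ g.support).card := by
  classical
  have hq : ∀ x, g x ∈ S ∩ g.support ↔ x ∈ S ∩ g.support := fun x => by
    rw [Finset.mem_inter, Finset.mem_inter, hS, Perm.apply_mem_support]
  set h : Perm {x // x ∈ S ∩ g.support} := g.subtypePerm hq with hh
  have hpow : h ^ p ^ 1 = 1 := by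
    rw [pow_one, hh, Perm.subtypePerm_pow]
    ext x
    simp [← hg, pow_orderOf_eq_one]
  have hsupp : h.supportᶜ = ∅ := by
    ext x
    have := (Finset.mem_inter.1 x.2).2
    rw [Perm.mem_support] at this
    simp only [Finset.mem_compl, Perm.mem_support, ne_eq, not_not, Finset.notMem_empty,
      iff_false, hh]
    exact fun e => this (congrArg Subtype.val e)
  have := Equiv.Perm.card_compl_support_modEq hpow
  rw [hsupp, Finset.card_empty, Fintype.card_coe] at this
  exact Nat.dvd_of_mod_eq_zero (Eq.symm this |>.trans (Nat.zero_mod p))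

/-- The support of a permutation is invariant under every commuting permutation. -/
theorem support_invariant {g u : Perm α} (hc : Commute g u) (x : α) :
    g x ∈ u.support ↔ x ∈ u.support := by
  rw [Perm.mem_support, Perm.mem_support]
  have h : u (g x) = g (u x) := (Perm.congr_fun hc.eq x).symm
  constructor
  · intro h1 h2
    exact h1 (by rw [h, h2])
  · intro h1 h2
    exact h1 (g.injective (by rw [← h, h2]))

/-- Numerical obstruction to commuting. -/
theorem not_commute {g u : Perm α} {p : ℕ} [Fact p.Prime] (hg : orderOf g = p)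
    (hnum : ∀ i, p * i ≤ u.support.card → p * i ≤ g.support.card →
      u.support.card ≤ p * i + (Fintype.card α - g.support.card) →
      u.support.card = p * i + 1) :
    ¬ Commute g u := by
  classical
  intro hc
  set S := u.support
  obtain ⟨i, hi⟩ := prime_dvd_card_inter hg S (support_invariant hc)
  have h1 := Finset.card_sdiff_add_card_inter S g.support
  have h2 : (S \ g.support).card ≤ Fintype.card α - g.support.card := by
    rw [← Finset.card_compl]
    exact Finset.card_le_card fun x hx => Finset.mem_compl.2 (Finset.mem_sdiff.1 hx).2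
  have h3 : (S ∩ g.support).card ≤ g.support.card := Finset.card_le_card Finset.inter_subset_right
  have h4 := hnum i (by omega) (by omega) (by omega)
  obtain ⟨x, hx⟩ := Finset.card_eq_one.1 (show (S \ g.support).card = 1 by omega)
  have hxS : x ∈ S \ g.support := hx ▸ Finset.mem_singleton_self x
  rw [Finset.mem_sdiff, Perm.mem_support (f := g), not_not] at hxS
  have hux : u x ∈ S \ g.support := by
    rw [Finset.mem_sdiff, Perm.mem_support (f := g), not_not]
    refine ⟨Perm.apply_mem_support.2 hxS.1, ?_⟩
    rw [show g (u x) = u (g x) from Perm.congr_fun hc.eq x, hxS.2]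
  rw [hx, Finset.mem_singleton] at hux
  exact (Perm.mem_support.1 hxS.1) hux

variable (G : Subgroup (Perm α))

/-- The standing hypotheses. -/
structure Setting : Prop where
  hα : Fintype.card α = 11
  htr : IsPretransitive G α
  hsol : ¬ Group.IsSolvable G
  hA : ¬ alternatingGroup α ≤ G

variable {G}

theorem Setting.two (S : Setting G) : IsMultiplyPretransitive G α 2 := by
  haveI := S.htr
  haveI : Fact (Nat.Prime 11) := ⟨by norm_num⟩
  exact CfsgLib.PermGroups.burnside_two_transitive S.hα S.hsol

theorem Setting.primitive (S : Setting G) : IsPreprimitive G α :=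
  MulAction.isPreprimitive_of_is_two_pretransitive S.two

/-- The support of an element of prime order. -/
theorem Setting.support_prime (S : Setting G) {p : ℕ} (hp : p.Prime) (hp8 : p + 3 ≤ 11) (g : G)
    (hg : orderOf g = p) :
    ∃ k, (g : Perm α).support.card = k * p ∧ 2 ≤ k ∧ k * p ≤ 11 ∧
      (g : Perm α).cycleType = Multiset.replicate k p := by
  have hg' : orderOf (g : Perm α) = p := (Subgroup.orderOf_coe g).trans hg
  obtain ⟨n, hn⟩ := Equiv.Perm.cycleType_prime_order (σ := (g : Perm α)) (hg'.symm ▸ hp)
  rw [hg'] at hn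
  have hs : (g : Perm α).support.card = (n + 1) * p := by
    rw [← Equiv.Perm.sum_cycleType, hn, Multiset.sum_replicate, smul_eq_mul]
  refine ⟨n + 1, hs, ?_, hs ▸ S.hα ▸ Finset.card_le_univ _, hn⟩
  by_contra hlt
  have h1 : n = 0 := by omega
  subst h1
  rw [zero_add, one_mul] at hs
  refine S.hA (CfsgLib.PermPrimes.alternatingGroup_le_of_primitive_pCycle G S.primitive hp
    (by rw [S.hα]; exact hp8) ?_ hs g.2)
  rw [← Equiv.Perm.card_cycleType_eq_one, hn, Multiset.card_replicate]

theorem Setting.support_five (S : Setting G) (g : G) (hg : orderOf g = 5) :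
    (g : Perm α).support.card = 10 := by
  obtain ⟨k, h1, h2, h3, -⟩ := S.support_prime (by norm_num) (by norm_num) g hg
  omega

theorem Setting.support_three (S : Setting G) (g : G) (hg : orderOf g = 3) :
    (g : Perm α).support.card = 6 ∨ (g : Perm α).support.card = 9 := by
  obtain ⟨k, h1, h2, h3, -⟩ := S.support_prime (by norm_num) (by norm_num) g hg
  omega

theorem Setting.orderOf_ne_seven (S : Setting G) (g : G) : orderOf g ≠ 7 := by
  intro hg
  obtain ⟨k, h1, h2, h3, -⟩ := S.support_prime (by norm_num) (by norm_num) g hg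
  omega

theorem Setting.support_eleven (S : Setting G) (g : G) (hg : orderOf g = 11) :
    (g : Perm α).support.card = 11 := by
  have hg' : orderOf (g : Perm α) = 11 := (Subgroup.orderOf_coe g).trans hg
  obtain ⟨n, hn⟩ := Equiv.Perm.cycleType_prime_order (σ := (g : Perm α))
    (hg'.symm ▸ (by norm_num : Nat.Prime 11))
  rw [hg'] at hn
  have hs : (g : Perm α).support.card = (n + 1) * 11 := by
    rw [← Equiv.Perm.sum_cycleType, hn, Multiset.sum_replicate, smul_eq_mul]
  have := Finset.card_le_univ (g : Perm α).support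
  rw [S.hα] at this
  omega

/-- The support of an even involution. -/
theorem Setting.support_two_even (S : Setting G) (g : G) (hg : orderOf g = 2)
    (hev : (g : Perm α) ∈ alternatingGroup α) :
    (g : Perm α).support.card = 4 ∨ (g : Perm α).support.card = 8 := by
  obtain ⟨k, h1, h2, h3, h4⟩ := S.support_prime (by norm_num) (by norm_num) g hg
  have h5 : k ≤ 5 := by omega
  rw [Equiv.Perm.mem_alternatingGroup, Equiv.Perm.sign_of_cycleType, h4, Multiset.sum_replicate,
    Multiset.card_replicate, smul_eq_mul] at hev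
  interval_cases k <;> first | omega | (exfalso; norm_num at hev)

/-- The support of an odd involution. -/
theorem Setting.support_two_odd (S : Setting G) (g : G) (hg : orderOf g = 2)
    (hev : (g : Perm α) ∉ alternatingGroup α) :
    (g : Perm α).support.card = 6 ∨ (g : Perm α).support.card = 10 := by
  obtain ⟨k, h1, h2, h3, h4⟩ := S.support_prime (by norm_num) (by norm_num) g hg
  have h5 : k ≤ 5 := by omega
  rw [Equiv.Perm.mem_alternatingGroup, Equiv.Perm.sign_of_cycleType, h4, Multiset.sum_replicate,
    Multiset.card_replicate, smul_eq_mul] at hev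
  interval_cases k <;> first | omega | (exfalso; norm_num at hev)

/-- A nontrivial `3`-element moves six or nine points. -/
theorem Setting.support_three_pow (S : Setting G) (g : G) (j : ℕ) (hg : g ^ 3 ^ j = 1)
    (h1 : g ≠ 1) :
    ((g : Perm α).support.card = 6 ∧ orderOf g = 3) ∨ (g : Perm α).support.card = 9 := by
  haveI : Fact (Nat.Prime 3) := ⟨by norm_num⟩
  obtain ⟨i, -, hi⟩ := (Nat.dvd_prime_pow Fact.out).1 (orderOf_dvd_of_pow_eq_one hg)
  have hσ : (g : Perm α) ^ 3 ^ j = 1 := by rw [← SubgroupClass.coe_pow, hg, Subgroup.coe_one]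
  have hmod := Equiv.Perm.card_compl_support_modEq hσ
  rw [Finset.card_compl, S.hα, Nat.ModEq] at hmod
  have hle := Finset.card_le_univ (g : Perm α).support
  rw [S.hα] at hle
  have hi0 : i ≠ 0 := fun e => h1 (orderOf_eq_one_iff.1 (by rw [hi, e, pow_zero]))
  have hmem : ∀ n ∈ (g : Perm α).cycleType, ∃ l, l ≤ i ∧ n = 3 ^ l := fun n hn => by
    have := Equiv.Perm.dvd_of_mem_cycleType hn
    rw [Subgroup.orderOf_coe, hi] at this
    exact (Nat.dvd_prime_pow Fact.out).1 this
  by_cases h6 : (g : Perm α).support.card ≤ 8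
  · left
    have h3 : orderOf g = 3 := by
      have hdvd : orderOf (g : Perm α) ∣ 3 := by
        rw [← Equiv.Perm.lcm_cycleType]
        refine Multiset.lcm_dvd.2 fun n hn => ?_
        obtain ⟨l, -, rfl⟩ := hmem n hn
        have := Multiset.le_sum_of_mem hn
        rw [Equiv.Perm.sum_cycleType] at this
        rcases l with _ | _ | l
        · norm_num
        · norm_num
        · have : 9 ≤ 3 ^ (l + 1 + 1) := by
            calc 9 = 3 ^ 2 := rfl
              _ ≤ 3 ^ (l + 1 + 1) := Nat.pow_le_pow_right (by norm_num) (by omega)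
          omega
      rw [Subgroup.orderOf_coe] at hdvd
      exact (Nat.prime_three.eq_one_or_self_of_dvd _ hdvd).resolve_left
        fun e => h1 (orderOf_eq_one_iff.1 e)
    refine ⟨?_, h3⟩
    rcases S.support_three g h3 with h | h <;> omega
  · right
    omega

/-- Elements of order five do not commute with elements moving four or six points. -/
theorem Setting.not_commute_five (S : Setting G) (g u : G) (hg : orderOf g = 5)
    (hu : (u : Perm α).support.card = 4 ∨ (u : Perm α).support.card = 6) : ¬ Commute g u := by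
  intro hc
  haveI : Fact (Nat.Prime 5) := ⟨by norm_num⟩
  refine not_commute ((Subgroup.orderOf_coe g).trans hg) (u := (u : Perm α)) ?_
    (congrArg Subtype.val hc.eq)
  rw [S.support_five g hg, S.hα]
  intro i
  omega

/-- Elements of order eleven do not commute with elements moving four or six points. -/
theorem Setting.not_commute_eleven (S : Setting G) (g u : G) (hg : orderOf g = 11)
    (hu : (u : Perm α).support.card = 4 ∨ (u : Perm α).support.card = 6) : ¬ Commute g u := by
  intro hc
  haveI : Fact (Nat.Prime 11) := ⟨by norm_num⟩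
  refine not_commute ((Subgroup.orderOf_coe g).trans hg) (u := (u : Perm α)) ?_
    (congrArg Subtype.val hc.eq)
  rw [S.support_eleven g hg, S.hα]
  intro i
  omega

/-- Elements of order three moving nine points do not commute with double transpositions. -/
theorem Setting.not_commute_three (S : Setting G) (g u : G) (hg : orderOf g = 3)
    (hg9 : (g : Perm α).support.card = 9) (hu : (u : Perm α).support.card = 4) :
    ¬ Commute g u := by
  intro hc
  haveI : Fact (Nat.Prime 3) := ⟨by norm_num⟩
  refine not_commute ((Subgroup.orderOf_coe g).trans hg) (u := (u : Perm α)) ?_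
    (congrArg Subtype.val hc.eq)
  rw [hg9, S.hα, hu]
  intro i
  omega

/-- A conjugation invariant set on which a `p`-subgroup acts freely. -/
theorem card_dvd_of_free {G : Type*} [Group G] [Finite G] {p : ℕ} [Fact p.Prime] (A : Subgroup G)
    (hA : IsPGroup p A) (X : Set G) (hX : ∀ g : G, ∀ u ∈ X, g * u * g⁻¹ ∈ X)
    (hfree : ∀ a : G, orderOf a = p → ∀ u ∈ X, ¬ Commute a u) :
    Nat.card A ∣ Nat.card X := by
  classical
  letI : MulAction A X :=
    { smul := fun a u => ⟨(a : G) * u * (a : G)⁻¹, hX a u u.2⟩
      one_smul := fun u => Subtype.ext (show ((1 : A) : G) * u * ((1 : A) : G)⁻¹ = u by simp)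
      mul_smul := fun a b u => Subtype.ext (show ((a * b : A) : G) * u * ((a * b : A) : G)⁻¹ =
        (a : G) * ((b : G) * u * (b : G)⁻¹) * (a : G)⁻¹ by simp [mul_assoc]) }
  have hs : ∀ u : X, stabilizer A u = ⊥ := by
    intro u
    rw [Subgroup.eq_bot_iff_forall]
    intro a ha
    by_contra ha1
    obtain ⟨k, hk⟩ := hA a
    obtain ⟨i, -, hi⟩ := (Nat.dvd_prime_pow (Fact.out : p.Prime)).1 (orderOf_dvd_of_pow_eq_one hk)
    obtain ⟨i, rfl⟩ : ∃ j, i = j + 1 := Nat.exists_eq_succ_of_ne_zero fun e =>
      ha1 (orderOf_eq_one_iff.1 (by rw [hi, e, pow_zero]))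
    have hmem : a ^ p ^ i ∈ stabilizer A u := Subgroup.pow_mem _ ha _
    refine hfree ((a ^ p ^ i : A) : G) ?_ u u.2 ?_
    · rw [Subgroup.orderOf_coe, orderOf_pow' _ (pow_ne_zero i (Fact.out : p.Prime).ne_zero), hi,
        Nat.gcd_eq_right (pow_dvd_pow p (Nat.le_succ i)), pow_succ,
        Nat.mul_div_cancel_left _ (pow_pos (Fact.out : p.Prime).pos i)]
    · exact mul_inv_eq_iff_eq_mul.1 (congrArg Subtype.val (mem_stabilizer_iff.1 hmem))
  rw [Nat.card_congr (MulAction.selfEquivOrbitsQuotientProd hs), Nat.card_prod]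
  exact dvd_mul_left _ _

/-- The fixed points of a permutation. -/
theorem card_fixed_eq (g : Perm α) :
    Nat.card {x : α // g x = x} = Fintype.card α - g.support.card := by
  classical
  rw [Nat.card_eq_fintype_card, Fintype.card_subtype, ← Finset.card_compl]
  congr 1
  ext x
  simp

/-- Double counting of the fixed tuples of a conjugation invariant set. -/
theorem count_fix (k : ℕ) [IsMultiplyPretransitive G α k] (X : Set G)
    (hX : ∀ g : G, ∀ u ∈ X, g * u * g⁻¹ ∈ X) (s : ℕ)
    (hs : ∀ u ∈ X, (u : Perm α).support.card = s) (t : Fin k ↪ α) :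
    Nat.card X * (Fintype.card α - s).descFactorial k =
      (Fintype.card α).descFactorial k * Nat.card {u : G // u ∈ X ∧ u • t = t} := by
  classical
  let I := {q : X × (Fin k ↪ α) // (q.1 : G) • q.2 = q.2}
  let e1 : I ≃ Σ u : X, {e : Fin k ↪ α // (u : G) • e = e} :=
    { toFun := fun q => ⟨q.1.1, q.1.2, q.2⟩
      invFun := fun q => ⟨(q.1, q.2.1), q.2.2⟩
      left_inv := fun _ => rfl
      right_inv := fun _ => rfl }
  let e2 : I ≃ Σ e : Fin k ↪ α, {u : G // u ∈ X ∧ u • e = e} :=
    { toFun := fun q => ⟨q.1.2, q.1.1, q.1.1.2, q.2⟩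
      invFun := fun q => ⟨(⟨q.2.1, q.2.2.1⟩, q.1), q.2.2.2⟩
      left_inv := fun _ => rfl
      right_inv := fun _ => rfl }
  have h1 : ∀ u : X, Nat.card {e : Fin k ↪ α // (u : G) • e = e} =
      (Fintype.card α - s).descFactorial k := by
    intro u
    let f : {e : Fin k ↪ α // (u : G) • e = e} ≃
        (Fin k ↪ {x : α // ((u : G) : Perm α) x = x}) :=
      { toFun := fun e => ⟨fun i => ⟨e.1 i, by
            have := congrArg (fun d : Fin k ↪ α => d i) e.2
            exact this⟩, fun i j h => e.1.injective (congrArg Subtype.val h)⟩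
        invFun := fun d => ⟨⟨fun i => (d i : α), fun i j h => d.injective (Subtype.ext h)⟩, by
            ext i
            exact (d i).2⟩
        left_inv := fun _ => rfl
        right_inv := fun _ => rfl }
    rw [Nat.card_congr f, Nat.card_eq_fintype_card, Fintype.card_embedding_eq, Fintype.card_fin,
      ← Nat.card_eq_fintype_card, card_fixed_eq, hs _ u.2]
  have h2 : ∀ e : Fin k ↪ α, Nat.card {u : G // u ∈ X ∧ u • e = e} =
      Nat.card {u : G // u ∈ X ∧ u • t = t} := by
    intro e
    obtain ⟨g, hg⟩ := exists_smul_eq G t e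
    have hX' : ∀ u, u ∈ X ↔ g * u * g⁻¹ ∈ X := fun u => ⟨hX g u, fun h => by
      have := hX g⁻¹ _ h
      rwa [inv_inv, show g⁻¹ * (g * u * g⁻¹) * g = u by group] at this⟩
    refine (Nat.card_congr ((MulAut.conj g).toEquiv.subtypeEquiv fun u => ?_)).symm
    simp only [MulEquiv.toEquiv_eq_coe, EquivLike.coe_coe, MulAut.conj_apply]
    rw [← hX' u]
    have hkey : (g * u * g⁻¹) • e = g • (u • t) := by
      ext i
      rw [← hg]
      simp [Function.Embedding.smul_apply, mul_smul]
    rw [hkey, ← hg]
    exact and_congr_right fun _ => ⟨fun h => congrArg (g • ·) h, fun h => by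
      ext i
      have := congrArg (fun d : Fin k ↪ α => d i) h
      simpa [Function.Embedding.smul_apply] using this⟩
  have hI1 : Nat.card I = Nat.card X * (Fintype.card α - s).descFactorial k := by
    rw [Nat.card_congr e1, Nat.card_sigma, Finset.sum_congr rfl (fun u _ => h1 u),
      Finset.sum_const, Finset.card_univ, smul_eq_mul, Nat.card_eq_fintype_card]
  have hI2 : Nat.card I =
      (Fintype.card α).descFactorial k * Nat.card {u : G // u ∈ X ∧ u • t = t} := by
    rw [Nat.card_congr e2, Nat.card_sigma, Finset.sum_congr rfl (fun e _ => h2 e),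
      Finset.sum_const, Finset.card_univ, smul_eq_mul, Fintype.card_embedding_eq, Fintype.card_fin]
  rw [← hI1, hI2]

/-- The order of the stabiliser of a tuple. -/
theorem card_stabilizer_mul (k : ℕ) [IsMultiplyPretransitive G α k] (t : Fin k ↪ α) :
    Nat.card (stabilizer G t) * (Fintype.card α).descFactorial k = Nat.card G := by
  rw [← Subgroup.card_mul_index (stabilizer G t), @MulAction.index_stabilizer_of_transitive G _ _ _ t ‹IsMultiplyPretransitive G α k›,
    Nat.card_eq_fintype_card (α := Fin k ↪ α), Fintype.card_embedding_eq, Fintype.card_fin]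

/-- `|G|` is not divisible by the full `p`-part of `11!` for `p ≤ 8`. -/
theorem Setting.not_dvd_full (S : Setting G) {p k : ℕ} (hp : p.Prime) (hp8 : p + 3 ≤ 11)
    (hk : (Nat.factorial 11).factorization p = k) : ¬ p ^ k ∣ Nat.card G := by
  intro hdvd
  haveI : Fact p.Prime := ⟨hp⟩
  obtain ⟨Q, hQ⟩ := Sylow.exists_subgroup_card_pow_prime p hdvd
  have hQ' : Nat.card (Q.map G.subtype) = p ^ (Nat.card (Perm α)).factorization p := by
    rw [Subgroup.card_map_of_injective G.subtype_injective, hQ, Nat.card_perm,
      Nat.card_eq_fintype_card, S.hα, hk]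
  obtain ⟨c, hc⟩ := (Equiv.Perm.exists_with_cycleType_iff α (m := {p})).2
    ⟨by rw [Multiset.sum_singleton, S.hα]; omega, by simpa using hp.two_le⟩
  have hco : orderOf c = p := by rw [← Equiv.Perm.lcm_cycleType, hc]; simp
  have hcs : c.support.card = p := by rw [← Equiv.Perm.sum_cycleType, hc]; simp
  obtain ⟨R, hR⟩ := (IsPGroup.of_card (p := p) (n := 1)
    (show Nat.card (Subgroup.zpowers c) = p ^ 1 by rw [Nat.card_zpowers, hco, pow_one])).exists_le_sylow
  obtain ⟨σ, hσ⟩ := exists_smul_eq (Perm α) R (Sylow.ofCard _ hQ')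
  have hmem : σ * c * σ⁻¹ ∈ Q.map G.subtype := by
    have : σ * c * σ⁻¹ ∈ ((σ • R : Sylow p (Perm α)) : Subgroup (Perm α)) := by
      rw [Sylow.coe_subgroup_smul]
      exact ⟨c, hR (Subgroup.mem_zpowers c), rfl⟩
    rw [hσ] at this
    exact this
  obtain ⟨g, -, hg⟩ := hmem
  have hgo : orderOf g = p := by
    rw [← Subgroup.orderOf_coe, show (g : Perm α) = σ * c * σ⁻¹ from hg]
    rw [← hco]
    exact orderOf_injective (MulAut.conj σ).toMonoidHom (MulAut.conj σ).injective c
  obtain ⟨j, h1, h2, -⟩ := S.support_prime hp hp8 g hgo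
  rw [show (g : Perm α) = σ * c * σ⁻¹ from hg, Equiv.Perm.card_support_conj, hcs] at h1
  nlinarith [hp.pos]

/-- A subgroup of order `p ^ k` acting freely. -/
theorem pow_dvd_card {G : Type*} [Group G] [Finite G] {p k : ℕ} [Fact p.Prime]
    (hdvd : p ^ k ∣ Nat.card G) (X : Set G) (hX : ∀ g : G, ∀ u ∈ X, g * u * g⁻¹ ∈ X)
    (hfree : ∀ a : G, orderOf a = p → ∀ u ∈ X, ¬ Commute a u) : p ^ k ∣ Nat.card X := by
  obtain ⟨A, hA⟩ := Sylow.exists_subgroup_card_pow_prime p hdvd
  exact hA ▸ card_dvd_of_free A (IsPGroup.of_card hA) X hX hfree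

/-- Elements of given order moving four or six points come in multiples of fifty-five. -/
theorem Setting.dvd_fiftyFive (S : Setting G) (h55 : 55 ∣ Nat.card G) (X : Set G)
    (hX : ∀ g : G, ∀ u ∈ X, g * u * g⁻¹ ∈ X)
    (hs : ∀ u ∈ X, (u : Perm α).support.card = 4 ∨ (u : Perm α).support.card = 6) :
    55 ∣ Nat.card X := by
  haveI : Fact (Nat.Prime 5) := ⟨by norm_num⟩
  haveI : Fact (Nat.Prime 11) := ⟨by norm_num⟩
  have h5 := pow_dvd_card (p := 5) (k := 1) (by rw [pow_one]; omega) X hX
    fun a ha u hu => S.not_commute_five a u ha (hs u hu)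
  have h11 := pow_dvd_card (p := 11) (k := 1) (by rw [pow_one]; omega) X hX
    fun a ha u hu => S.not_commute_eleven a u ha (hs u hu)
  rw [pow_one] at h5 h11
  omega

end CfsgLib.PermGroups.Eleven
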