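import Cfsg.Agent.PermGroups.DegreeEleven

/-!
Insoluble transitive groups of degree eleven: orders, four-transitivity.
-/

set_option autoImplicit false
set_option linter.style.haveILetI false
set_option linter.unusedSectionVars false

open MulAction Equiv Equiv.Perm
open scoped Pointwise

namespace CfsgLib.PermGroups.Eleven

variable {α : Type*} [Fintype α] [DecidableEq α] {G : Subgroup (Perm α)}

/-- In an even group the Sylow normaliser has order fifty-five. -/
theorem Setting.card_normalizer (S : Setting G) (hev : G ≤ alternatingGroup α) (P : Sylow 11 G) :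
    Nat.card (Subgroup.normalizer ((P : Subgroup G) : Set G)) = 55 := by
  haveI : Fact (Nat.Prime 11) := ⟨by norm_num⟩
  haveI : Fact (Nat.Prime 2) := ⟨Nat.prime_two⟩
  haveI := S.htr
  have hX : Nat.card α = 11 := by rw [Nat.card_eq_fintype_card, S.hα]
  obtain ⟨e, he, hN⟩ := exists_card_normalizer_sylow hX P
  have he1 : e ≠ 1 := by
    intro h1
    rw [h1, mul_one] at hN
    have hNP : Subgroup.normalizer ((P : Subgroup G) : Set G) = (P : Subgroup G) :=
      (Subgroup.eq_of_le_of_card_ge Subgroup.le_normalizer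
        (by rw [hN, card_sylow_prime_degree hX P])).symm
    have hNC : Subgroup.normalizer ((P : Subgroup G) : Set G) ≤
        Subgroup.centralizer ((P : Subgroup G) : Set G) := by
      rw [hNP, centralizer_sylow_prime_degree hX P]
    have hK := MonoidHom.ker_transferSylow_isComplement' P hNC
    have hK11 := MonoidHom.not_dvd_card_ker_transferSylow P hNC
    by_cases hb : (MonoidHom.transferSylow P hNC).ker = ⊥
    · rw [hb, Subgroup.isComplement'_bot_left] at hK
      exact S.hsol (isSolvable_of_sylow_normal hX P (hK ▸ inferInstance))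
    · haveI := isPretransitive_normal_prime_degree (X := α) hX hb
      exact hK11 (prime_dvd_card hX)
  have hodd : ¬ 2 ∣ e := by
    intro h2
    obtain ⟨⟨t, htN⟩, ht⟩ := exists_prime_orderOf_dvd_card'
      (G := Subgroup.normalizer ((P : Subgroup G) : Set G)) 2 (hN ▸ dvd_mul_of_dvd_right h2 11)
    rw [← Subgroup.orderOf_coe] at ht
    change orderOf t = 2 at ht
    rcases S.support_two_even t ht (hev t.2) with h | h <;>
    · obtain ⟨a, ha⟩ := Finset.card_pos.1 (show 0 < (t : Perm α).supportᶜ.card by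
        rw [Finset.card_compl, h, S.hα]; norm_num)
      obtain ⟨b, hb, hba⟩ := Finset.exists_mem_ne (show 1 < (t : Perm α).supportᶜ.card by
        rw [Finset.card_compl, h, S.hα]; norm_num) a
      rw [Finset.mem_compl, Perm.mem_support, not_not] at ha hb
      have := eq_one_of_fix_two_of_normalizer hX P htN hba (show t • b = b from hb)
        (show t • a = a from ha)
      rw [this, orderOf_one] at ht
      omega
  have : e ≤ 10 := Nat.le_of_dvd (by norm_num) he
  interval_cases e <;> omega

/-- The possible orders of an even group. -/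
theorem Setting.card_cases (S : Setting G) (hev : G ≤ alternatingGroup α) :
    Nat.card G = 660 ∨ Nat.card G = 7920 ∨ Nat.card G = 95040 := by
  haveI : Fact (Nat.Prime 11) := ⟨by norm_num⟩
  haveI := S.htr
  haveI : Nontrivial α := Fintype.one_lt_card_iff_nontrivial.1 (by rw [S.hα]; norm_num)
  have hX : Nat.card α = 11 := by rw [Nat.card_eq_fintype_card, S.hα]
  obtain ⟨P⟩ : Nonempty (Sylow 11 G) := inferInstance
  set n := Nat.card (Sylow 11 G) with hn
  have hG : Nat.card G = n * 55 := by
    rw [hn, P.card_eq_index_normalizer, ← S.card_normalizer hev P]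
    exact (Subgroup.index_mul_card _).symm
  have hn1 : n ≠ 1 := fun h1 => by
    haveI := (Nat.card_eq_one_iff_unique.1 h1).1
    exact S.hsol (isSolvable_of_sylow_normal hX P P.normal_of_subsingleton)
  have hmod : n % 11 = 1 % 11 := card_sylow_modEq_one 11 G
  have hdvd : Nat.card G ∣ 19958400 := by
    have h := Subgroup.card_dvd_of_le hev
    rw [nat_card_alternatingGroup, Nat.card_eq_fintype_card (α := α), S.hα] at h
    exact h
  have hfac : ∀ (p k : ℕ), p.Prime → p ^ k ∣ 39916800 → ¬ p ^ (k + 1) ∣ 39916800 →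
      (Nat.factorial 11).factorization p = k := by
    intro p k hp h1 h2
    rw [show Nat.factorial 11 = 39916800 by decide]
    refine le_antisymm (Nat.le_of_lt_succ (not_le.1 fun h => h2 ?_))
      ((Nat.Prime.pow_dvd_iff_le_factorization hp (by norm_num)).1 h1)
    exact (Nat.Prime.pow_dvd_iff_le_factorization hp (by norm_num)).2 h
  have h5 : ¬ 25 ∣ Nat.card G :=
    S.not_dvd_full (p := 5) (k := 2) (by norm_num) (by norm_num)
      (hfac 5 2 (by norm_num) (by norm_num) (by norm_num))
  have h81 : ¬ 81 ∣ Nat.card G :=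
    S.not_dvd_full (p := 3) (k := 4) (by norm_num) (by norm_num)
      (hfac 3 4 (by norm_num) (by norm_num) (by norm_num))
  have h7 : ¬ 7 ∣ Nat.card G := fun h7 => by
    haveI : Fact (Nat.Prime 7) := ⟨by norm_num⟩
    obtain ⟨g, hg⟩ := exists_prime_orderOf_dvd_card' (G := G) 7 h7
    exact S.orderOf_ne_seven g hg
  rw [hG] at hdvd h5 h81 h7
  have hn2 : n ∣ 128 * 81 := by
    have h1 : n ∣ (128 * 81) * 35 :=
      Nat.dvd_of_mul_dvd_mul_right (by norm_num : 0 < 55)
        (show n * 55 ∣ (128 * 81) * 35 * 55 by norm_num; exact hdvd)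
    refine Nat.Coprime.dvd_of_dvd_mul_right ?_ h1
    have c5 : Nat.Coprime n 5 := ((by norm_num : Nat.Prime 5).coprime_iff_not_dvd.2
      fun h => h5 (show 25 ∣ n * 55 by omega)).symm
    have c7 : Nat.Coprime n 7 := ((by norm_num : Nat.Prime 7).coprime_iff_not_dvd.2
      fun h => h7 (dvd_mul_of_dvd_left h 55)).symm
    exact c5.mul_right c7
  obtain ⟨a, b, ha, hb, hab⟩ := Nat.dvd_mul.1 hn2
  obtain ⟨i, hi, rfl⟩ := (Nat.dvd_prime_pow Nat.prime_two).1 (show a ∣ 2 ^ 7 from ha)
  obtain ⟨j, hj, rfl⟩ := (Nat.dvd_prime_pow Nat.prime_three).1 (show b ∣ 3 ^ 4 from hb)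
  rw [hG]
  interval_cases i <;> interval_cases j <;> omega

/-- The first two entries of a triple. -/
def pairOf (t : Fin 3 ↪ α) : Fin 2 ↪ α := Fin.castSuccEmb.trans t

/-- The number of fixed points seen by the counting argument of Burnside. -/
theorem Setting.burnside_sum (S : Setting G) (T : Subgroup G) (hT : IsPGroup 3 T) (t : Fin 2 ↪ α)
    (hTt : T ≤ stabilizer G t) :
    ∃ orb : ℕ, 11 + 3 * Nat.card {u : T // ((u : G) : Perm α).support.card = 6} +
      2 * (Nat.card T - 1) = orb * Nat.card T := by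
  classical
  haveI : Fintype T := Fintype.ofFinite T
  refine ⟨Fintype.card (Quotient (orbitRel T α)), ?_⟩
  have hfix : ∀ g : T, Fintype.card (fixedBy α g) =
      11 - ((g : G) : Perm α).support.card := fun g => by
    rw [← Nat.card_eq_fintype_card, ← S.hα, ← card_fixed_eq]
    rfl
  have hle : ∀ g : T, ((g : G) : Perm α).support.card ≤ 9 := fun g => by
    have h1 : ({t 0, t 1} : Finset α) ⊆ ((g : G) : Perm α).supportᶜ := by
      intro x hx
      rw [Finset.mem_compl, Perm.mem_support, not_not]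
      have := mem_stabilizer_iff.1 (hTt g.2)
      rcases Finset.mem_insert.1 hx with rfl | hx
      · exact congrArg (fun d : Fin 2 ↪ α => d 0) this
      · rw [Finset.mem_singleton.1 hx]
        exact congrArg (fun d : Fin 2 ↪ α => d 1) this
    have h2 := Finset.card_le_card h1
    rw [Finset.card_pair (t.injective.ne (by decide)), Finset.card_compl, S.hα] at h2
    omega
  have hsum := MulAction.sum_card_fixedBy_eq_card_orbits_mul_card_group T α
  rw [Finset.sum_congr rfl (fun g _ => hfix g)] at hsum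
  rw [Nat.card_eq_fintype_card (α := T), ← hsum, Nat.card_eq_fintype_card, Fintype.card_subtype]
  have hterm : ∀ g : T, g ≠ 1 → 11 - ((g : G) : Perm α).support.card =
      2 + 3 * (if ((g : G) : Perm α).support.card = 6 then 1 else 0) := by
    intro g hg
    obtain ⟨k, hk⟩ := hT g
    rcases S.support_three_pow (g : G) k (by rw [← SubgroupClass.coe_pow, hk, Subgroup.coe_one])
      (fun h => hg (Subtype.ext h)) with ⟨h, -⟩ | h <;> simp [h]
  rw [← Finset.add_sum_erase Finset.univ _ (Finset.mem_univ (1 : T)),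
    Finset.sum_congr rfl (fun g hg => hterm g (Finset.ne_of_mem_erase hg)), Finset.sum_add_distrib,
    ← Finset.mul_sum, Finset.sum_boole, Finset.sum_const, Finset.card_erase_of_mem (Finset.mem_univ _),
    Finset.card_univ, Finset.filter_erase, Finset.erase_eq_of_notMem (by simp)]
  simp only [Subgroup.coe_one, Perm.support_one, Finset.card_empty, Nat.cast_id, smul_eq_mul]
  omega

/-- A subgroup of order nine fixing two points has at most six elements moving six points. -/
theorem Setting.count_six_of_nine (S : Setting G) (T : Subgroup G) (hT : Nat.card T = 9)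
    (t : Fin 2 ↪ α) (hTt : T ≤ stabilizer G t) :
    3 ∣ Nat.card {u : T // ((u : G) : Perm α).support.card = 6} ∧
      Nat.card {u : T // ((u : G) : Perm α).support.card = 6} ≤ 6 := by
  classical
  haveI : Fintype T := Fintype.ofFinite T
  obtain ⟨orb, horb⟩ := S.burnside_sum T (IsPGroup.of_card (n := 2) hT) t hTt
  rw [hT] at horb
  have hle : Nat.card {u : T // ((u : G) : Perm α).support.card = 6} ≤ 8 := by
    have h1 : Nat.card {u : T // ((u : G) : Perm α).support.card = 6} < Nat.card T := by
      rw [Nat.card_eq_fintype_card, Nat.card_eq_fintype_card]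
      exact Fintype.card_subtype_lt (x := (1 : T)) (by simp)
    omega
  omega

/-- No element of order three moves six points when `|G| = 7920`. -/
theorem Setting.no_six (S : Setting G) (hG : Nat.card G = 7920) (u : G) (hu : orderOf u = 3) :
    (u : Perm α).support.card = 9 := by
  classical
  rcases S.support_three u hu with h6 | h9
  swap
  · exact h9
  exfalso
  haveI := S.two
  haveI : Fact (Nat.Prime 3) := ⟨by norm_num⟩
  set X : Set G := {v | orderOf v = 3 ∧ (v : Perm α).support.card = 6} with hX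
  have hXc : ∀ g : G, ∀ v ∈ X, g * v * g⁻¹ ∈ X := fun g v hv => by
    refine ⟨?_, ?_⟩
    · rw [show g * v * g⁻¹ = MulAut.conj g v from rfl, MulEquiv.orderOf_eq]; exact hv.1
    · rw [Subgroup.coe_mul, Subgroup.coe_mul, Subgroup.coe_inv, Equiv.Perm.card_support_conj]
      exact hv.2
  obtain ⟨t⟩ : Nonempty (Fin 2 ↪ α) := Function.Embedding.nonempty_of_card_le (by simp [S.hα])
  have hc := count_fix 2 X hXc 6 (fun v hv => hv.2) t
  rw [S.hα, show (11 - 6 : ℕ).descFactorial 2 = 20 by rfl,
    show (11 : ℕ).descFactorial 2 = 110 by rfl] at hc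
  have hHc := card_stabilizer_mul (G := G) 2 t
  rw [S.hα, show (11 : ℕ).descFactorial 2 = 110 by rfl, hG] at hHc
  have h55 := S.dvd_fiftyFive (by rw [hG]; norm_num) X hXc fun v hv => Or.inr hv.2
  set H := stabilizer G t
  let XH : Set H := {v | (v : G) ∈ X}
  have hXH : Nat.card {v : G // v ∈ X ∧ v • t = t} = Nat.card XH :=
    Nat.card_congr
      { toFun := fun v => ⟨⟨v.1, mem_stabilizer_iff.2 v.2.2⟩, v.2.1⟩
        invFun := fun v => ⟨v.1.1, v.2, mem_stabilizer_iff.1 v.1.2⟩
        left_inv := fun _ => rfl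
        right_inv := fun _ => rfl }
  rw [hXH] at hc
  have hH72 : Nat.card H = 72 := by omega
  have hTc : ∀ T : Sylow 3 H, Nat.card (T : Subgroup H) = 9 := fun T => by
    simpa using CfsgLib.SylowToolkit.card_sylow_subgroup_eq (p := 3) (k := 2) (m := 8)
      (by rw [hH72]; norm_num) (by norm_num) T
  have hsix : ∀ T : Sylow 3 H, 3 ∣ Nat.card {v : (T : Subgroup H) // (v : H) ∈ XH} ∧
      Nat.card {v : (T : Subgroup H) // (v : H) ∈ XH} ≤ 6 := by
    intro T
    have hcardT : Nat.card ((T : Subgroup H).map H.subtype) = 9 := by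
      rw [Subgroup.card_map_of_injective H.subtype_injective, hTc T]
    have := S.count_six_of_nine ((T : Subgroup H).map H.subtype) hcardT t (Subgroup.map_subtype_le _)
    have heq : Nat.card {v : (T : Subgroup H) // (v : H) ∈ XH} =
        Nat.card {v : (T : Subgroup H).map H.subtype // ((v : G) : Perm α).support.card = 6} := by
      refine Nat.card_congr ((Subgroup.equivMapOfInjective _ _ H.subtype_injective).toEquiv.subtypeEquiv
        fun v => ?_)
      simp only [MulEquiv.toEquiv_eq_coe, EquivLike.coe_coe, Subgroup.coe_equivMapOfInjective_apply,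
        Subgroup.coe_subtype]
      refine ⟨fun h => h.2, fun h => ⟨?_, h⟩⟩
      have hp : IsPGroup 3 (T : Subgroup H) := T.isPGroup'
      obtain ⟨k, hk⟩ := hp v
      have hk' : ((v : H) : G) ^ 3 ^ k = 1 := by
        have := congrArg (fun z : (T : Subgroup H) => ((z : H) : G)) hk
        simpa using this
      rcases S.support_three_pow _ k hk' (fun h1 => by rw [h1] at h; simp at h) with ⟨-, h'⟩ | h'
      · exact h'
      · omega
    rw [heq]
    exact this
  obtain ⟨T⟩ : Nonempty (Sylow 3 H) := inferInstance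
  -- counting modulo three
  letI : MulAction (T : Subgroup H) XH :=
    { smul := fun a v => ⟨(a : H) * v * (a : H)⁻¹, hXc ((a : H) : G) _ v.2⟩
      one_smul := fun v => Subtype.ext (show ((1 : (T : Subgroup H)) : H) * v *
        ((1 : (T : Subgroup H)) : H)⁻¹ = v by simp)
      mul_smul := fun a b v => Subtype.ext (show ((a * b : (T : Subgroup H)) : H) * v *
        ((a * b : (T : Subgroup H)) : H)⁻¹ = (a : H) * ((b : H) * v * (b : H)⁻¹) * (a : H)⁻¹ by
          simp [mul_assoc]) }
  have hmodT := (T.isPGroup').card_modEq_card_fixedPoints XH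
  haveI hcomm : IsMulCommutative (T : Subgroup H) :=
    IsPGroup.isMulCommutative_of_card_eq_prime_sq (p := 3) (by rw [hTc T]; norm_num)
  have hfixT : Nat.card (fixedPoints (T : Subgroup H) XH) =
      Nat.card {v : (T : Subgroup H) // (v : H) ∈ XH} := by
    refine Nat.card_congr
      { toFun := fun v => ⟨⟨(v.1 : H), ?_⟩, v.1.2⟩
        invFun := fun v => ⟨⟨(v.1 : H), v.2⟩, fun a => Subtype.ext ?_⟩
        left_inv := fun _ => rfl
        right_inv := fun _ => rfl }
    · have hcom : ∀ a : (T : Subgroup H), (a : H) * (v.1 : H) = (v.1 : H) * a := fun a =>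
        mul_inv_eq_iff_eq_mul.1 (congrArg Subtype.val (v.2 a))
      have hz : IsPGroup 3 (Subgroup.zpowers (v.1 : H)) := IsPGroup.of_card (n := 1) (by
        rw [Nat.card_zpowers, pow_one, ← Subgroup.orderOf_coe]; exact v.1.2.1)
      have hle : Subgroup.zpowers (v.1 : H) ≤
          Subgroup.normalizer ((T : Subgroup H) : Set H) := by
        refine Subgroup.zpowers_le.2 (Subgroup.mem_normalizer_iff.2 fun a => ⟨fun ha => ?_, fun ha => ?_⟩)
        · rw [← hcom ⟨a, ha⟩, mul_inv_cancel_right]; exact ha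
        · have := hcom ⟨_, ha⟩
          have e : (v.1 : H) * a * (v.1 : H)⁻¹ * (v.1 : H) = (v.1 : H) * ((v.1 : H) * a * (v.1 : H)⁻¹) := this
          rw [inv_mul_cancel_right, mul_right_inj] at e
          rw [e]; exact ha
      have := (le_inf le_rfl hle).trans (hz.inf_normalizer_sylow T).le
      exact (this.trans inf_le_right) (Subgroup.mem_zpowers _)
    · show (a : H) * (v.1 : H) * (a : H)⁻¹ = (v.1 : H)
      rw [show (a : H) * (v.1 : H) = (v.1 : H) * a from
        congrArg Subtype.val (mul_comm' (M := (T : Subgroup H)) a v.1), mul_inv_cancel_right]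
  rw [hfixT, Nat.ModEq] at hmodT
  -- upper bound
  have hn3 : Nat.card (Sylow 3 H) ≤ 4 := by
    have h1 := Sylow.card_dvd_index T
    have h2 : Nat.card (Sylow 3 H) % 3 = 1 % 3 := card_sylow_modEq_one 3 H
    have h3 := (T : Subgroup H).card_mul_index
    rw [hTc T, hH72] at h3
    rw [show (T : Subgroup H).index = 8 by omega] at h1
    have h4 := Nat.le_of_dvd (by norm_num) h1
    interval_cases Nat.card (Sylow 3 H) <;> omega
  haveI : Fintype (Sylow 3 H) := Fintype.ofFinite _
  have hbound : Nat.card XH ≤ Nat.card (Sylow 3 H) * 6 := by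
    refine le_trans (Nat.card_le_card_of_surjective
      (α := Σ Q : Sylow 3 H, {v : (Q : Subgroup H) // (v : H) ∈ XH}) (β := XH)
      (fun z => ⟨z.2.1, z.2.2⟩) fun v => ?_) ?_
    · have hz : IsPGroup 3 (Subgroup.zpowers (v : H)) := IsPGroup.of_card (n := 1) (by
        rw [Nat.card_zpowers, pow_one, ← Subgroup.orderOf_coe]; exact v.2.1)
      obtain ⟨Q, hQ⟩ := hz.exists_le_sylow
      exact ⟨⟨Q, ⟨(v : H), hQ (Subgroup.mem_zpowers _)⟩, v.2⟩, rfl⟩
    · rw [Nat.card_sigma, Nat.card_eq_fintype_card (α := Sylow 3 H)]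
      exact (Finset.sum_le_sum fun Q _ => (hsix Q).2).trans (by simp)
  obtain ⟨h3, -⟩ := hsix T
  obtain ⟨m, hm⟩ := h55
  rw [hm] at hc
  have hpos : 0 < Nat.card X := by
    haveI : Nonempty X := ⟨⟨u, hu, h6⟩⟩
    exact Nat.card_pos
  omega

/-- The stabilisers of four points are trivial when `|G| = 7920` and `G` is even. -/
theorem Setting.free_four (S : Setting G) (hev : G ≤ alternatingGroup α)
    (hG : Nat.card G = 7920) (x : Fin 4 ↪ α) : stabilizer G x = ⊥ := by
  classical
  by_contra hne
  have h1 : 1 < Nat.card (stabilizer G x) := (Subgroup.one_lt_card_iff_ne_bot _).2 hne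
  obtain ⟨p, hp, hpd⟩ := Nat.exists_prime_and_dvd h1.ne'
  haveI : Fact p.Prime := ⟨hp⟩
  obtain ⟨⟨g, hgx⟩, hg⟩ := exists_prime_orderOf_dvd_card' (G := stabilizer G x) p hpd
  rw [← Subgroup.orderOf_coe] at hg
  change orderOf g = p at hg
  have hs7 : (g : Perm α).support.card ≤ 7 := by
    have h2 : Finset.univ.map x ⊆ (g : Perm α).supportᶜ := by
      intro z hz
      obtain ⟨i, -, rfl⟩ := Finset.mem_map.1 hz
      rw [Finset.mem_compl, Perm.mem_support, not_not]
      exact congrArg (fun d : Fin 4 ↪ α => d i) (mem_stabilizer_iff.1 hgx)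
    have := Finset.card_le_card h2
    rw [Finset.card_map, Finset.card_univ, Fintype.card_fin, Finset.card_compl, S.hα] at this
    omega
  have hpG : p ∣ 7920 := hG ▸ hg ▸ orderOf_dvd_natCard g
  have hple : p = 2 ∨ p = 3 ∨ p = 5 ∨ p = 11 := by
    have h3 : p ∈ Nat.primeFactors 7920 := Nat.mem_primeFactors.2 ⟨hp, hpG, by norm_num⟩
    rw [show (7920 : ℕ) = 2 ^ 4 * 3 ^ 2 * 5 * 11 by norm_num, Nat.primeFactors_mul (by norm_num)
      (by norm_num), Nat.primeFactors_mul (by norm_num) (by norm_num), Nat.primeFactors_mul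
      (by norm_num) (by norm_num), Nat.primeFactors_prime_pow (by norm_num) Nat.prime_two,
      Nat.primeFactors_prime_pow (by norm_num) Nat.prime_three, (by norm_num : Nat.Prime 5).primeFactors,
      (by norm_num : Nat.Prime 11).primeFactors] at h3
    simpa [or_assoc] using h3
  rcases hple with rfl | rfl | rfl | rfl
  · rcases S.support_two_even g hg (hev g.2) with h4 | h8
    swap
    · omega
    haveI := S.two
    set Y : Set G := {v | orderOf v = 2 ∧ (v : Perm α).support.card = 4} with hY
    have hYc : ∀ a : G, ∀ v ∈ Y, a * v * a⁻¹ ∈ Y := fun a v hv => by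
      refine ⟨?_, ?_⟩
      · rw [show a * v * a⁻¹ = MulAut.conj a v from rfl, MulEquiv.orderOf_eq]; exact hv.1
      · rw [Subgroup.coe_mul, Subgroup.coe_mul, Subgroup.coe_inv, Equiv.Perm.card_support_conj]
        exact hv.2
    obtain ⟨t⟩ : Nonempty (Fin 2 ↪ α) := Function.Embedding.nonempty_of_card_le (by simp [S.hα])
    have hc := count_fix 2 Y hYc 4 (fun v hv => hv.2) t
    rw [S.hα, show (11 - 4 : ℕ).descFactorial 2 = 42 by rfl,
      show (11 : ℕ).descFactorial 2 = 110 by rfl] at hc
    have hHc := card_stabilizer_mul (G := G) 2 t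
    rw [S.hα, show (11 : ℕ).descFactorial 2 = 110 by rfl, hG] at hHc
    have hle : Nat.card {v : G // v ∈ Y ∧ v • t = t} ≤ Nat.card (stabilizer G t) :=
      Nat.card_le_card_of_injective (fun v => ⟨v.1, mem_stabilizer_iff.2 v.2.2⟩)
        fun a b h => Subtype.ext (congrArg Subtype.val h :)
    haveI : Fact (Nat.Prime 3) := ⟨by norm_num⟩
    have h55 := S.dvd_fiftyFive (by rw [hG]; norm_num) Y hYc fun v hv => Or.inl hv.2
    have h9 : 3 ^ 2 ∣ Nat.card Y := pow_dvd_card (by rw [hG]; norm_num) Y hYc
      fun a ha v hv => S.not_commute_three a v ha (S.no_six hG a ha) hv.2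
    have hpos : 0 < Nat.card Y := by
      haveI : Nonempty Y := ⟨⟨g, hg, h4⟩⟩
      exact Nat.card_pos
    omega
  · have := S.no_six hG g hg; omega
  · have := S.support_five g hg; omega
  · have := S.support_eleven g hg; omega

/-- A Sylow three-subgroup of order twenty-seven in a two-point stabiliser moves the other points
transitively. -/
theorem Setting.transitive_twentySeven (S : Setting G) (T : Subgroup G) (hT : Nat.card T = 27)
    (t : Fin 2 ↪ α) (hTt : T ≤ stabilizer G t) (b c : α) (hb : b ≠ t 0 ∧ b ≠ t 1)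
    (hc : c ≠ t 0 ∧ c ≠ t 1) : ∃ g ∈ T, (g : Perm α) b = c := by
  classical
  haveI : Fact (Nat.Prime 3) := ⟨by norm_num⟩
  have hTp : IsPGroup 3 T := IsPGroup.of_card (n := 3) hT
  have hfix : ∀ g ∈ T, (g : Perm α) (t 0) = t 0 ∧ (g : Perm α) (t 1) = t 1 := fun g hg =>
    ⟨congrArg (fun d : Fin 2 ↪ α => d 0) (mem_stabilizer_iff.1 (hTt hg)),
     congrArg (fun d : Fin 2 ↪ α => d 1) (mem_stabilizer_iff.1 (hTt hg))⟩
  have ht01 : t 0 ≠ t 1 := t.injective.ne (by decide)
  set Ω : Finset α := ({t 0, t 1} : Finset α)ᶜ with hΩ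
  have hΩc : Ω.card = 9 := by rw [hΩ, Finset.card_compl, Finset.card_pair ht01, S.hα]
  have horbsub : ∀ a ∈ Ω, ∀ z ∈ orbit T a, z ∈ Ω := by
    rintro a ha _ ⟨g, rfl⟩
    simp only [hΩ, Finset.mem_compl, Finset.mem_insert, Finset.mem_singleton, not_or] at ha ⊢
    refine ⟨fun h => ha.1 ?_, fun h => ha.2 ?_⟩
    · exact ((g : G) : Perm α).injective (h.trans (hfix g g.2).1.symm)
    · exact ((g : G) : Perm α).injective (h.trans (hfix g g.2).2.symm)
  have hsize : ∀ a : α, ∃ i ≤ 3, (orbit T a).ncard = 3 ^ i := by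
    intro a
    obtain ⟨i, hi⟩ := hTp.index (stabilizer T a)
    rw [MulAction.index_stabilizer] at hi
    refine ⟨i, ?_, hi⟩
    have h1 : 3 ^ i ∣ 3 ^ 3 := by
      rw [← hi, ← MulAction.index_stabilizer, show (3 : ℕ) ^ 3 = Nat.card T by rw [hT]; rfl]
      exact Subgroup.index_dvd_card _
    exact (Nat.pow_dvd_pow_iff_le_right (by norm_num)).1 h1
  by_cases hbig : ∃ a ∈ Ω, 3 < (orbit T a).ncard
  · obtain ⟨a, ha, ha3⟩ := hbig
    have hsub : orbit T a ⊆ (Ω : Set α) := horbsub a ha
    have hle := Set.ncard_le_ncard hsub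
    rw [Set.ncard_coe_finset, hΩc] at hle
    obtain ⟨i, hi, hi'⟩ := hsize a
    have h9 : (orbit T a).ncard = 9 := by interval_cases i <;> omega
    have heq : orbit T a = (Ω : Set α) :=
      Set.eq_of_subset_of_ncard_le hsub (by rw [Set.ncard_coe_finset, hΩc, h9])
    have hbΩ : b ∈ orbit T a := by rw [heq]; simp [hΩ, hb]
    have hcΩ : c ∈ orbit T a := by rw [heq]; simp [hΩ, hc]
    rw [← MulAction.orbit_eq_iff.2 hbΩ] at hcΩ
    obtain ⟨g, hg⟩ := hcΩ
    exact ⟨g, g.2, hg⟩
  exfalso
  push Not at hbig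
  -- some orbit has size three
  obtain ⟨g₀, hg₀⟩ : ∃ g : T, g ≠ 1 := by
    haveI : Nontrivial T := Finite.one_lt_card_iff_nontrivial.1 (by rw [hT]; norm_num)
    exact exists_ne 1
  obtain ⟨a, haS⟩ := Finset.nonempty_iff_ne_empty.2 (show ((g₀ : G) : Perm α).support ≠ ∅ from
    fun h => hg₀ (Subtype.ext (Subtype.ext (Perm.support_eq_empty_iff.1 h))))
  rw [Perm.mem_support] at haS
  have haΩ : a ∈ Ω := by
    simp only [hΩ, Finset.mem_compl, Finset.mem_insert, Finset.mem_singleton, not_or]
    exact ⟨fun h => haS (h ▸ (hfix g₀ g₀.2).1), fun h => haS (h ▸ (hfix g₀ g₀.2).2)⟩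
  have hAc : (orbit T a).ncard = 3 := by
    obtain ⟨i, hi, hi'⟩ := hsize a
    have h2 : 1 < (orbit T a).ncard := (Set.one_lt_ncard_iff (Set.toFinite _)).2
      ⟨a, _, mem_orbit_self a, mem_orbit a g₀, fun h => haS h.symm⟩
    have := hbig a haΩ
    interval_cases i <;> omega
  set A : Finset α := (orbit T a).toFinset with hA
  have hA3 : A.card = 3 := by rw [hA, ← Set.ncard_eq_toFinset_card', hAc]
  obtain ⟨b', hb'⟩ : (Ω \ A).Nonempty := by
    rw [← Finset.card_pos]
    have := Finset.le_card_sdiff A Ω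
    omega
  rw [Finset.mem_sdiff] at hb'
  set K := stabilizer T a ⊓ stabilizer T b' with hK
  have hKc : 3 ≤ Nat.card K := by
    have h1 := Subgroup.index_inf_le (H := stabilizer T a) (K := stabilizer T b')
    rw [← hK, MulAction.index_stabilizer, MulAction.index_stabilizer, hAc] at h1
    have h2 := hbig b' hb'.1
    have h3 := K.card_mul_index
    rw [hT] at h3
    by_contra hlt
    push Not at hlt
    have : Nat.card K * K.index ≤ 2 * 9 := Nat.mul_le_mul (by omega) (h1.trans (by omega))
    omega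
  obtain ⟨⟨g, hgK⟩, hg⟩ := exists_prime_orderOf_dvd_card' (G := K) 3 (by
    obtain ⟨i, hi, hi'⟩ := (Nat.dvd_prime_pow Nat.prime_three).1
      (show Nat.card K ∣ 3 ^ 3 by rw [show (3 : ℕ) ^ 3 = Nat.card T by rw [hT]; rfl]
                                  exact Subgroup.card_subgroup_dvd_card K)
    rcases i with _ | i
    · omega
    · exact hi' ▸ dvd_pow_self 3 (Nat.succ_ne_zero i))
  rw [← Subgroup.orderOf_coe] at hg
  change orderOf g = 3 at hg
  have hgo : orderOf ((g : G) : Perm α) = 3 := by
    rw [Subgroup.orderOf_coe, Subgroup.orderOf_coe]; exact hg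
  have hga : ((g : G) : Perm α) a = a := (Subgroup.mem_inf.1 hgK).1
  have hgb : ((g : G) : Perm α) b' = b' := (Subgroup.mem_inf.1 hgK).2
  have hAinv : ∀ x, ((g : G) : Perm α) x ∈ A ↔ x ∈ A := fun x => by
    rw [hA, Set.mem_toFinset, Set.mem_toFinset]
    show g • x ∈ orbit T a ↔ _
    rw [← MulAction.orbit_eq_iff, ← MulAction.orbit_eq_iff, MulAction.orbit_smul]
  have hdis : Disjoint A ((g : G) : Perm α).support := by
    rw [Finset.disjoint_iff_inter_eq_empty, ← Finset.card_eq_zero]
    obtain ⟨k, hk⟩ := prime_dvd_card_inter hgo A hAinv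
    have h1 : (A ∩ ((g : G) : Perm α).support).card < A.card := by
      refine Finset.card_lt_card (Finset.ssubset_iff_subset_ne.2 ⟨Finset.inter_subset_left, ?_⟩)
      intro h
      have : a ∈ A ∩ ((g : G) : Perm α).support := by rw [h, hA]; simp
      exact Perm.mem_support.1 (Finset.mem_inter.1 this).2 hga
    omega
  have hsub : insert b' (insert (t 0) (insert (t 1) A)) ⊆ ((g : G) : Perm α).supportᶜ := by
    intro x hx
    rw [Finset.mem_compl]
    simp only [Finset.mem_insert] at hx
    rcases hx with rfl | rfl | rfl | hx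
    · rw [Perm.mem_support, not_not]; exact hgb
    · rw [Perm.mem_support, not_not]; exact (hfix _ g.2).1
    · rw [Perm.mem_support, not_not]; exact (hfix _ g.2).2
    · exact Finset.disjoint_left.1 hdis hx
  have h5 := Finset.card_le_card hsub
  have hb'' := hb'.1
  simp only [hΩ, Finset.mem_compl, Finset.mem_insert, Finset.mem_singleton, not_or] at hb''
  have hAΩ : ∀ x ∈ A, x ≠ t 0 ∧ x ≠ t 1 := fun x hx => by
    have := horbsub a haΩ x (by rw [hA] at hx; exact Set.mem_toFinset.1 hx)
    simpa [hΩ] using this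
  rw [Finset.card_insert_of_notMem (by simp [hb''.1, hb''.2, hb'.2]),
    Finset.card_insert_of_notMem (by
      simp only [Finset.mem_insert, not_or]
      exact ⟨ht01, fun h => (hAΩ _ h).1 rfl⟩),
    Finset.card_insert_of_notMem (fun h => (hAΩ _ h).2 rfl), hA3, Finset.card_compl, S.hα] at h5
  rcases S.support_three (g : G) (by rw [Subgroup.orderOf_coe]; exact hg) with h | h <;> omega

/-- The order `95040` does not occur. -/
theorem Setting.card_ne_large (S : Setting G) : Nat.card G ≠ 95040 := by
  classical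
  intro hG
  haveI := S.two
  haveI : Fact (Nat.Prime 3) := ⟨by norm_num⟩
  obtain ⟨t⟩ : Nonempty (Fin 2 ↪ α) := Function.Embedding.nonempty_of_card_le (by simp [S.hα])
  have hHc := card_stabilizer_mul (G := G) 2 t
  rw [S.hα, show (11 : ℕ).descFactorial 2 = 110 by rfl, hG] at hHc
  obtain ⟨T, hT⟩ := Sylow.exists_subgroup_card_pow_prime (G := stabilizer G t) 3 (n := 3)
    (by omega)
  have hTc : Nat.card (T.map (stabilizer G t).subtype) = 27 := by
    rw [Subgroup.card_map_of_injective (Subgroup.subtype_injective _), hT]; norm_num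
  have htrans := S.transitive_twentySeven _ hTc t (Subgroup.map_subtype_le _)
  haveI h3 : IsMultiplyPretransitive G α 3 := by
    have key : ∀ x : Fin 3 ↪ α, ∀ w : α, w ≠ t 0 → w ≠ t 1 →
        ∃ g : G, g • x 0 = t 0 ∧ g • x 1 = t 1 ∧ g • x 2 = w := by
      intro x w hw0 hw1
      obtain ⟨g, h0, h1⟩ := (MulAction.is_two_pretransitive_iff.1 S.two)
        (x.injective.ne (by decide : (0 : Fin 3) ≠ 1)) (t.injective.ne (by decide : (0 : Fin 2) ≠ 1))
      have hg2 : g • x 2 ≠ t 0 ∧ g • x 2 ≠ t 1 := by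
        rw [← h0, ← h1]
        exact ⟨fun h => absurd (x.injective (smul_left_cancel g h)) (by decide),
          fun h => absurd (x.injective (smul_left_cancel g h)) (by decide)⟩
      obtain ⟨k, hk, hk2⟩ := htrans (g • x 2) w hg2 ⟨hw0, hw1⟩
      have hks := mem_stabilizer_iff.1 (Subgroup.map_subtype_le _ hk)
      refine ⟨k * g, ?_, ?_, ?_⟩
      · rw [mul_smul, h0]; exact congrArg (fun d : Fin 2 ↪ α => d 0) hks
      · rw [mul_smul, h1]; exact congrArg (fun d : Fin 2 ↪ α => d 1) hks
      · rw [mul_smul]; exact hk2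
    rw [CfsgLib.PermGroups.is_three_pretransitive_iff]
    intro a b c d e f hab hac hbc hde hdf hef
    obtain ⟨w, hw⟩ := Finset.card_pos.1 (show 0 < ({t 0, t 1} : Finset α)ᶜ.card by
      rw [Finset.card_compl, Finset.card_pair (t.injective.ne (by decide)), S.hα]; norm_num)
    simp only [Finset.mem_compl, Finset.mem_insert, Finset.mem_singleton, not_or] at hw
    let mk : ∀ a b c : α, a ≠ b → a ≠ c → b ≠ c → Fin 3 ↪ α := fun a b c hab hac hbc =>
      ⟨![a, b, c], by
        intro i j hij; fin_cases i <;> fin_cases j <;>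
          first | rfl | (exfalso; simp [hab, hac, hbc, hab.symm, hac.symm, hbc.symm] at hij)⟩
    obtain ⟨g, g0, g1, g2⟩ := key (mk a b c hab hac hbc) w hw.1 hw.2
    obtain ⟨k, k0, k1, k2⟩ := key (mk d e f hde hdf hef) w hw.1 hw.2
    change g • a = t 0 at g0
    change g • b = t 1 at g1
    change g • c = w at g2
    change k • d = t 0 at k0
    change k • e = t 1 at k1
    change k • f = w at k2
    refine ⟨k⁻¹ * g, ?_, ?_, ?_⟩
    · rw [mul_smul, g0, ← k0, inv_smul_smul]
    · rw [mul_smul, g1, ← k1, inv_smul_smul]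
    · rw [mul_smul, g2, ← k2, inv_smul_smul]
  obtain ⟨r⟩ : Nonempty (Fin 3 ↪ α) := Function.Embedding.nonempty_of_card_le (by simp [S.hα])
  have hKc := card_stabilizer_mul (G := G) 3 r
  rw [S.hα, show (11 : ℕ).descFactorial 3 = 990 by rfl, hG] at hKc
  set X : Set G := {v | orderOf v = 3 ∧ (v : Perm α).support.card = 6} with hX
  have hXc : ∀ g : G, ∀ v ∈ X, g * v * g⁻¹ ∈ X := fun g v hv => by
    refine ⟨?_, ?_⟩
    · rw [show g * v * g⁻¹ = MulAut.conj g v from rfl, MulEquiv.orderOf_eq]; exact hv.1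
    · rw [Subgroup.coe_mul, Subgroup.coe_mul, Subgroup.coe_inv, Equiv.Perm.card_support_conj]
      exact hv.2
  have hc := count_fix 3 X hXc 6 (fun v hv => hv.2) r
  rw [S.hα, show (11 - 6 : ℕ).descFactorial 3 = 60 by rfl,
    show (11 : ℕ).descFactorial 3 = 990 by rfl] at hc
  obtain ⟨m, hm⟩ := S.dvd_fiftyFive (by rw [hG]; norm_num) X hXc fun v hv => Or.inr hv.2
  set K := stabilizer G r
  have hK96 : Nat.card K = 96 := by omega
  have hXK : Nat.card {v : G // v ∈ X ∧ v • r = r} = Nat.card {v : K // orderOf v = 3} := by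
    refine Nat.card_congr
      { toFun := fun v => ⟨⟨v.1, mem_stabilizer_iff.2 v.2.2⟩, (Subgroup.orderOf_mk _ _).trans v.2.1.1⟩
        invFun := fun v => ⟨v.1.1, ⟨(Subgroup.orderOf_coe v.1).trans v.2, ?_⟩, mem_stabilizer_iff.1 v.1.2⟩
        left_inv := fun _ => rfl
        right_inv := fun _ => rfl }
    have h8 : Finset.univ.map r ⊆ ((v.1 : G) : Perm α).supportᶜ := by
      intro z hz
      obtain ⟨i, -, rfl⟩ := Finset.mem_map.1 hz
      rw [Finset.mem_compl, Perm.mem_support, not_not]
      exact congrArg (fun d : Fin 3 ↪ α => d i) (mem_stabilizer_iff.1 v.1.2)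
    have h9 := Finset.card_le_card h8
    rw [Finset.card_map, Finset.card_univ, Fintype.card_fin, Finset.card_compl, S.hα] at h9
    rcases S.support_three (v.1 : G) ((Subgroup.orderOf_coe v.1).trans v.2) with h | h <;> omega
  rw [hXK, CfsgLib.SylowToolkit.card_orderOf_eq_prime (p := 3) (m := 32) (by rw [hK96]) (by norm_num),
    hm] at hc
  obtain ⟨P⟩ : Nonempty (Sylow 3 K) := inferInstance
  have h32 : Nat.card (Sylow 3 K) ∣ 2 ^ 5 := by
    have h1 := Sylow.card_dvd_index P
    have h3 := (P : Subgroup K).card_mul_index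
    have h4 : Nat.card (P : Subgroup K) = 3 := by
      simpa using CfsgLib.SylowToolkit.card_sylow_subgroup_eq (p := 3) (k := 1) (m := 32)
        (by rw [hK96]; norm_num) (by norm_num) P
    rw [h4, hK96] at h3
    rw [show (P : Subgroup K).index = 32 by omega] at h1
    exact h1
  obtain ⟨i, hi, hi'⟩ := (Nat.dvd_prime_pow Nat.prime_two).1 h32
  rw [hi'] at hc
  interval_cases i <;> omega

end CfsgLib.PermGroups.Eleven
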